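import Cfsg.Agent.H354.KGL.T1
import Cfsg.Agent.H644.KGV.Goals
set_option linter.all false

-- part: H354/KGL/F1
section
/-!
# KGL, F1: S4968 from the linear theorem (helper354)
-/

set_option autoImplicit false

namespace Cfsg.Agent.H354.KGL.F1

open Cfsg.Agent.H475.KGL Subgroup

universe u

theorem kc_congr {X Y : Type*} [Group X] [Group Y] (e : X ≃* Y) : kc X = kc Y :=
  Nat.card_congr ⟨ConjClasses.map e.toMonoidHom, ConjClasses.map e.symm.toMonoidHom, by
    intro c
    obtain ⟨a, rfl⟩ := ConjClasses.exists_rep c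
    change ConjClasses.mk (e.symm (e a)) = ConjClasses.mk a
    rw [e.symm_apply_apply], by
    intro c
    obtain ⟨a, rfl⟩ := ConjClasses.exists_rep c
    change ConjClasses.mk (e (e.symm a)) = ConjClasses.mk a
    rw [e.apply_symm_apply]⟩

theorem kc_eq_card {X : Type*} [Group X] (h : ∀ a b : X, a * b = b * a) : kc X = Nat.card X := by
  symm
  apply Nat.card_congr
  refine Equiv.ofBijective ConjClasses.mk ⟨fun a b hab => ?_, ConjClasses.exists_rep⟩
  rw [ConjClasses.mk_eq_mk_iff_isConj, isConj_iff] at hab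
  obtain ⟨c, hc⟩ := hab
  rw [h c a, mul_inv_cancel_right] at hc
  exact hc

theorem comm_of_kc {X : Type*} [Group X] [Finite X] (h : kc X = Nat.card X) (a b : X) :
    a * b = b * a := by
  have hb : Function.Bijective (ConjClasses.mk : X → ConjClasses X) :=
    Function.Surjective.bijective_of_nat_card_le ConjClasses.exists_rep (le_of_eq h.symm)
  have h1 : ConjClasses.mk (a * b * a⁻¹) = ConjClasses.mk b := by
    rw [ConjClasses.mk_eq_mk_iff_isConj, isConj_comm]
    exact isConj_iff.2 ⟨a, rfl⟩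
  have h2 := hb.1 h1
  rwa [mul_inv_eq_iff_eq_mul] at h2

section

variable {p : ℕ} [Fact p.Prime] {V : Type u} [AddCommGroup V] [Module (ZMod p) V] [Finite V]
  [Nontrivial V]

/-- a group which is regular on the nonzero vectors has order `|V| - 1`. -/
theorem card_of_reg (G : Subgroup (V ≃ₗ[ZMod p] V)) (h : Reg G) :
    Nat.card G = Nat.card V - 1 := by
  classical
  obtain ⟨v0, hv0⟩ := exists_ne (0 : V)
  have e : G ≃ {w : V // w ≠ 0} := Equiv.ofBijective
    (fun g => ⟨(g : V ≃ₗ[ZMod p] V) v0, by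
      rw [Ne, LinearEquiv.map_eq_zero_iff]; exact hv0⟩) ⟨by
      intro a b hab
      have h1 : (a : V ≃ₗ[ZMod p] V) v0 = (b : V ≃ₗ[ZMod p] V) v0 := congrArg Subtype.val hab
      have h2 : ((b⁻¹ * a : G) : V ≃ₗ[ZMod p] V) = 1 := by
        refine h.2 _ (b⁻¹ * a : G).2 v0 hv0 ?_
        change (b : V ≃ₗ[ZMod p] V).symm ((a : V ≃ₗ[ZMod p] V) v0) = v0
        rw [h1, LinearEquiv.symm_apply_apply]
      have h3 : b⁻¹ * a = 1 := Subtype.ext h2
      rw [inv_mul_eq_one] at h3
      exact h3.symm, by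
      rintro ⟨w, hw⟩
      obtain ⟨g, hg, hgw⟩ := h.1 v0 hv0 w hw
      exact ⟨⟨g, hg⟩, Subtype.ext hgw⟩⟩
  rw [Nat.card_congr e]
  have : Fintype V := Fintype.ofFinite V
  rw [Nat.card_eq_fintype_card, Nat.card_eq_fintype_card]
  exact Set.card_ne_eq (0 : V)

/-- an abelian group which is transitive on the nonzero vectors is cyclic. -/
theorem isCyclic_of (G : Subgroup (V ≃ₗ[ZMod p] V)) (hc : ∀ a b : G, a * b = b * a)
    (ht : ∀ v : V, v ≠ 0 → ∀ w : V, w ≠ 0 → ∃ g ∈ G, g v = w) : IsCyclic G := by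
  classical
  let ι : G →* Module.End (ZMod p) V :=
    { toFun := fun g => ((g : V ≃ₗ[ZMod p] V) : V →ₗ[ZMod p] V)
      map_one' := rfl
      map_mul' := fun _ _ => rfl }
  let S : Set (Module.End (ZMod p) V) := Set.range ι
  have hS : ∀ a ∈ S, ∀ b ∈ S, a * b = b * a := by
    rintro _ ⟨a, rfl⟩ _ ⟨b, rfl⟩
    rw [← map_mul, ← map_mul, hc]
  have := Algebra.isMulCommutative_adjoin (ZMod p) hS
  let inst : CommRing (Algebra.adjoin (ZMod p) S) :=
    { (inferInstance : Ring (Algebra.adjoin (ZMod p) S)) with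
      mul_comm := fun a b => this.is_comm.comm a b }
  have hcomm : ∀ r : Algebra.adjoin (ZMod p) S, ∀ g : G,
      (r : Module.End (ZMod p) V) * ι g = ι g * r := by
    rintro ⟨r, hr⟩ g
    change r * ι g = ι g * r
    induction hr using Algebra.adjoin_induction with
    | mem x hx =>
      obtain ⟨a, rfl⟩ := hx
      rw [← map_mul, ← map_mul, hc]
    | algebraMap c => exact (Algebra.commutes c (ι g))
    | add x y _ _ hx hy => rw [add_mul, mul_add, hx, hy]
    | mul x y _ _ hx hy => rw [mul_assoc, hy, ← mul_assoc, hx, mul_assoc]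
  have hinj : ∀ r : Algebra.adjoin (ZMod p) S, r ≠ 0 → ∀ v : V,
      (r : Module.End (ZMod p) V) v = 0 → v = 0 := by
    intro r hr v hv
    by_contra hv0
    apply hr
    apply Subtype.ext
    apply LinearMap.ext
    intro w
    by_cases hw : w = 0
    · rw [hw, map_zero, map_zero]
    · obtain ⟨g, hg, rfl⟩ := ht v hv0 w hw
      have h1 := LinearMap.congr_fun (hcomm r ⟨g, hg⟩) v
      change (r : Module.End (ZMod p) V) (g v) = g ((r : Module.End (ZMod p) V) v) at h1
      rw [h1, hv, map_zero]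
      rfl
  have : NoZeroDivisors (Algebra.adjoin (ZMod p) S) := ⟨by
    intro r s hrs
    by_contra hne
    push Not at hne
    apply hne.2
    apply Subtype.ext
    apply LinearMap.ext
    intro v
    have h1 : (r : Module.End (ZMod p) V) ((s : Module.End (ZMod p) V) v) = 0 := by
      have h2 := congrArg (fun x : Algebra.adjoin (ZMod p) S => (x : Module.End (ZMod p) V) v) hrs
      exact h2
    exact hinj r hne.1 _ h1⟩
  have : Nontrivial (Algebra.adjoin (ZMod p) S) := inferInstance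
  have : IsDomain (Algebra.adjoin (ZMod p) S) := NoZeroDivisors.to_isDomain _
  have : Finite (V ≃ₗ[ZMod p] V) :=
    Finite.of_injective (fun e : V ≃ₗ[ZMod p] V => (e : V → V)) DFunLike.coe_injective
  let f : G →* Algebra.adjoin (ZMod p) S :=
    { toFun := fun g => ⟨ι g, Algebra.subset_adjoin ⟨g, rfl⟩⟩
      map_one' := Subtype.ext (map_one ι)
      map_mul' := fun a b => Subtype.ext (map_mul ι a b) }
  refine isCyclic_of_injective_ringHom f fun a b hab => ?_
  have h1 : ι a = ι b := congrArg Subtype.val hab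
  apply Subtype.ext
  apply LinearEquiv.ext
  intro v
  exact LinearMap.congr_fun h1 v

end

/-- the linear map of an automorphism -/
def linOf {p : ℕ} {A : Type u} [CommGroup A] [Module (ZMod p) (Additive A)] :
    MulAut A →* (Additive A ≃ₗ[ZMod p] Additive A) where
  toFun f :=
    { (MulEquiv.toAdditive f : Additive A ≃+ Additive A) with
      map_smul' := fun c a =>
        ZMod.map_smul (MulEquiv.toAdditive f : Additive A ≃+ Additive A) c a }
  map_one' := rfl
  map_mul' _ _ := rfl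

theorem linOf_apply {p : ℕ} {A : Type u} [CommGroup A] [Module (ZMod p) (Additive A)]
    (f : MulAut A) (a : A) :
    (linOf f : Additive A ≃ₗ[ZMod p] Additive A) (Additive.ofMul a) = Additive.ofMul (f a) := rfl

/-- the abstract form -/
theorem core (hM : ∀ (p : ℕ) [Fact p.Prime] (V : Type u) [AddCommGroup V] [Module (ZMod p) V]
      [Finite V] [Nontrivial V], Bd p V)
    {X : Type u} [Group X] [Finite X] (p : ℕ) [Fact p.Prime] (V : Subgroup X)
    {E : Type u} [AddCommGroup E] [Module (ZMod p) E] [Nontrivial E] [Finite E]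
    (j : E → X) (hj : Function.Injective j) (hj0 : j 0 = 1) (hjV : ∀ x, x ∈ V ↔ ∃ a, j a = x)
    (φ : X →* (E ≃ₗ[ZMod p] E)) (hφ : ∀ x a, j (φ x a) = x * j a * x⁻¹)
    (hidx : ¬ p ∣ V.index)
    (hself : Subgroup.centralizer (V : Set X) = V) (G : Subgroup X)
    (hGV : Subgroup.IsComplement' V G) :
    Nat.card (ConjClasses G) ≤ Nat.card V - 1 ∧ (Nat.card (ConjClasses G) = Nat.card V - 1 ↔
      (IsCyclic G ∧ ∀ v ∈ V, ∀ w ∈ V, v ≠ 1 → w ≠ 1 → ∃ g ∈ G, g * v * g⁻¹ = w)) := by
  classical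
  let ψ : G →* (E ≃ₗ[ZMod p] E) := φ.comp G.subtype
  have hψ' : ∀ (g : G) (a : E), j (ψ g a) = g * j a * (g : X)⁻¹ := fun g a => hφ g a
  have hψ : Function.Injective ψ := by
    rw [injective_iff_map_eq_one]
    intro g hg
    have h1 : (g : X) ∈ V := by
      rw [← hself, mem_centralizer_iff]
      intro v hv
      obtain ⟨a, rfl⟩ := (hjV v).1 hv
      have h2 := hψ' g a
      rw [hg] at h2
      change j a = (g : X) * j a * (g : X)⁻¹ at h2
      rw [eq_mul_inv_iff_mul_eq] at h2
      exact h2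
    have h3 : (g : X) ∈ (⊥ : Subgroup X) := hGV.disjoint.le_bot ⟨h1, g.2⟩
    exact Subtype.ext (mem_bot.1 h3)
  let e : G ≃* ψ.range := MonoidHom.ofInjective hψ
  have hcG : Nat.card ψ.range = Nat.card G := (Nat.card_congr e.toEquiv).symm
  have hkc : kc G = kc ψ.range := kc_congr e
  have hcV : Nat.card E = Nat.card V :=
    Nat.card_congr (Equiv.ofBijective (fun a => (⟨j a, (hjV _).2 ⟨a, rfl⟩⟩ : V))
      ⟨fun a b hab => hj (congrArg Subtype.val hab), fun ⟨x, hx⟩ => by
        obtain ⟨a, ha⟩ := (hjV x).1 hx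
        exact ⟨a, Subtype.ext ha⟩⟩)
  have hp : ¬ p ∣ Nat.card ψ.range := by
    rw [hcG, ← hGV.symm.index_eq_card]
    exact hidx
  obtain ⟨hb, hr⟩ := hM p E ψ.range hp
  rw [← hkc, hcV] at hb hr
  refine ⟨hb, fun heq => ?_, fun ⟨hcyc, htr⟩ => ?_⟩
  · have hreg := hr heq
    have hcard := card_of_reg ψ.range hreg
    have h1 : kc G = Nat.card G := by
      rw [← hcG, hcard, hcV]
      exact heq
    have hcomm := comm_of_kc h1
    have hcomm' : ∀ a b : ψ.range, a * b = b * a := by
      intro a b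
      obtain ⟨a, rfl⟩ := e.surjective a
      obtain ⟨b, rfl⟩ := e.surjective b
      rw [← map_mul, ← map_mul, hcomm]
    refine ⟨?_, ?_⟩
    · have h2 : IsCyclic ψ.range := isCyclic_of ψ.range hcomm' hreg.1
      exact isCyclic_of_surjective e.symm e.symm.surjective
    · intro v hv w hw hv1 hw1
      obtain ⟨a, rfl⟩ := (hjV v).1 hv
      obtain ⟨b, rfl⟩ := (hjV w).1 hw
      have hv2 : a ≠ 0 := fun h => hv1 (by rw [h, hj0])
      have hw2 : b ≠ 0 := fun h => hw1 (by rw [h, hj0])
      obtain ⟨_, ⟨g, rfl⟩, hgw⟩ := hreg.1 _ hv2 _ hw2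
      refine ⟨g, g.2, ?_⟩
      have h3 := hψ' g a
      rw [hgw] at h3
      exact h3.symm
  · have hcomm : ∀ a b : G, a * b = b * a := by
      let := hcyc.commGroup
      intro a b
      exact mul_comm a b
    have hreg : Reg ψ.range := by
      have ht : ∀ v : E, v ≠ 0 → ∀ w : E, w ≠ 0 → ∃ g : G, ψ g v = w := by
        intro v hv w hw
        obtain ⟨g, hg, hgw⟩ := htr (j v) ((hjV _).2 ⟨_, rfl⟩)
          (j w) ((hjV _).2 ⟨_, rfl⟩)
          (fun h => hv (hj (h.trans hj0.symm)))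
          (fun h => hw (hj (h.trans hj0.symm)))
        refine ⟨⟨g, hg⟩, ?_⟩
        apply hj
        rw [← hgw]
        exact hψ' ⟨g, hg⟩ v
      refine ⟨fun v hv w hw => ?_, ?_⟩
      · obtain ⟨g, hg⟩ := ht v hv w hw
        exact ⟨ψ g, ⟨g, rfl⟩, hg⟩
      · rintro _ ⟨g, rfl⟩ v hv hgv
        apply LinearEquiv.ext
        intro w
        by_cases hw : w = 0
        · rw [hw, map_zero, map_zero]
        · obtain ⟨h, rfl⟩ := ht v hv w hw
          change (ψ g * ψ h) v = ψ h v
          rw [← map_mul, hcomm, map_mul]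
          change ψ h (ψ g v) = ψ h v
          rw [hgv]
    have h1 : kc G = Nat.card G := kc_eq_card hcomm
    change kc G = _
    rw [h1, ← hcG, card_of_reg ψ.range hreg, hcV]

theorem core2 (hM : ∀ (p : ℕ) [Fact p.Prime] (V : Type u) [AddCommGroup V] [Module (ZMod p) V]
      [Finite V] [Nontrivial V], Bd p V)
    {X : Type u} [Group X] [Finite X] (p : ℕ) [Fact p.Prime] (V : Subgroup X)
    {A : Type u} [CommGroup A] [Module (ZMod p) (Additive A)] [Nontrivial A] [Finite A]
    (j : A →* X) (hj : Function.Injective j) (hjV : ∀ x, x ∈ V ↔ ∃ a, j a = x)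
    (c : X →* MulAut A) (hc : ∀ x a, j (c x a) = x * j a * x⁻¹)
    (hidx : ¬ p ∣ V.index)
    (hself : Subgroup.centralizer (V : Set X) = V) (G : Subgroup X)
    (hGV : Subgroup.IsComplement' V G) :
    Nat.card (ConjClasses G) ≤ Nat.card V - 1 ∧ (Nat.card (ConjClasses G) = Nat.card V - 1 ↔
      (IsCyclic G ∧ ∀ v ∈ V, ∀ w ∈ V, v ≠ 1 → w ≠ 1 → ∃ g ∈ G, g * v * g⁻¹ = w)) :=
  core hM p V (E := Additive A) (fun a => j (Additive.toMul a)) hj (map_one j)
    (fun x => hjV x) (MonoidHom.comp linOf c) (fun x a => hc x (Additive.toMul a)) hidx hself G hGV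

/-- S4968. -/
theorem s4968_of (hM : ∀ (p : ℕ) [Fact p.Prime] (V : Type u) [AddCommGroup V] [Module (ZMod p) V]
      [Finite V] [Nontrivial V], Bd p V)
    {X : Type u} [Group X] [Finite X] (p : ℕ) [Fact p.Prime] (V : Subgroup X) [V.Normal]
    (hVexp : ∀ v ∈ V, v ^ p = 1) (hidx : ¬ p ∣ V.index)
    (hself : Subgroup.centralizer (V : Set X) = V) (hV : V ≠ ⊥) (G : Subgroup X)
    (hGV : Subgroup.IsComplement' V G) :
    Nat.card (ConjClasses G) ≤ Nat.card V - 1 ∧ (Nat.card (ConjClasses G) = Nat.card V - 1 ↔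
      (IsCyclic G ∧ ∀ v ∈ V, ∀ w ∈ V, v ≠ 1 → w ≠ 1 → ∃ g ∈ G, g * v * g⁻¹ = w)) := by
  have hab : ∀ a b : V, a * b = b * a := by
    rintro ⟨a, ha⟩ ⟨b, hb⟩
    apply Subtype.ext
    have h1 : b ∈ centralizer (V : Set X) := by rw [hself]; exact hb
    exact mem_centralizer_iff.1 h1 a ha
  have hnt : Nontrivial V := (nontrivial_iff_ne_bot V).2 hV
  let inst : CommGroup V := { (inferInstance : Group V) with mul_comm := hab }
  let inst2 : Module (ZMod p) (Additive V) := AddCommGroup.zmodModule (by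
    intro x
    change Additive.ofMul (Additive.toMul x ^ p) = 0
    rw [show Additive.toMul x ^ p = 1 from Subtype.ext (hVexp _ (Additive.toMul x).2)]
    rfl)
  exact core2 hM p V (A := V) V.subtype
    (subtype_injective V) (fun x => ⟨fun hx => ⟨⟨x, hx⟩, rfl⟩, fun ⟨a, ha⟩ => ha ▸ a.2⟩)
    MulAut.conjNormal (fun x a => MulAut.conjNormal_apply x a) hidx hself G hGV

end Cfsg.Agent.H354.KGL.F1
end

-- part: H354/KGL/Main
section
/-!
# `MainKGV` implies the linear theorem and S4968 (helper354)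
-/

set_option autoImplicit false

namespace Cfsg.Agent.H354.KGL.Main

open Cfsg.Agent.H475.KGL Cfsg.Agent.H644.KGV Cfsg.Agent.H354.KGL.T1

universe u

/-- the linear theorem from the `k(GV)` theorem -/
theorem bd_of_main (h : MainKGV.{u}) (p : ℕ) [Fact p.Prime] (V : Type u) [AddCommGroup V]
    [Module (ZMod p) V] [Finite V] [Nontrivial V] : Bd p V := by
  intro G hG
  refine bd_of_le G hG ?_
  have : Finite (V ≃ₗ[ZMod p] V) :=
    Finite.of_injective (fun e : V ≃ₗ[ZMod p] V => (e : V → V)) DFunLike.coe_injective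
  have : Finite G := inferInstance
  have : Finite (SD G) := Finite.of_injective (fun x : SD G => (x.left, x.right)) (by
    intro x y hxy
    rw [Prod.mk.injEq] at hxy
    exact SemidirectProduct.ext hxy.1 hxy.2)
  have key := (h p (SD G) (VV G) (VV_exp G) (by rw [index_VV]; exact hG) (VV_self G)).1
  rwa [card_VV] at key

/-- S4968 from the `k(GV)` theorem -/
theorem s4968_of_main (h : MainKGV.{u}) {X : Type u} [Group X] [Finite X] (p : ℕ) [Fact p.Prime]
    (V : Subgroup X) [V.Normal] (hVexp : ∀ v ∈ V, v ^ p = 1) (hidx : ¬ p ∣ V.index)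
    (hself : Subgroup.centralizer (V : Set X) = V) (hV : V ≠ ⊥) (G : Subgroup X)
    (hGV : Subgroup.IsComplement' V G) :
    Nat.card (ConjClasses G) ≤ Nat.card V - 1 ∧ (Nat.card (ConjClasses G) = Nat.card V - 1 ↔
      (IsCyclic G ∧ ∀ v ∈ V, ∀ w ∈ V, v ≠ 1 → w ≠ 1 → ∃ g ∈ G, g * v * g⁻¹ = w)) :=
  F1.s4968_of (fun p _ V _ _ _ _ => bd_of_main h p V) p V hVexp hidx hself hV G hGV

/-- S4954 from the `k(GV)` theorem -/
theorem s4954_of_main (h : MainKGV.{u}) {X : Type u} [Group X] [Finite X] (p : ℕ) [Fact p.Prime]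
    (V : Subgroup X) [V.Normal] (hVexp : ∀ v ∈ V, v ^ p = 1) (hidx : ¬ p ∣ V.index)
    (hself : Subgroup.centralizer (V : Set X) = V) :
    Nat.card (ConjClasses X) ≤ Nat.card V :=
  (h p X V hVexp hidx hself).1

end Cfsg.Agent.H354.KGL.Main
end
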